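import Mathlib
import Cfsg.Agent.Lib.Helper80.CharOps
import Cfsg.Agent.Lib.Helper80.ItoConverse
import Cfsg.Agent.Lib.Helper80.Eigen
import Cfsg.Agent.Lib.Helper81.CharCore

set_option autoImplicit false

/-!
# The Isaacs–Passman reduction step when `G ⧸ K` has a nontrivial centre

`K` is a normal subgroup of the finite group `G` such that `G ⧸ K` is non-abelian while
`G ⧸ L` is abelian for every normal subgroup `L` properly containing `K`, and `Z(G ⧸ K) ≠ 1`.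
If all irreducible characters of `G` have degree at most `b`, the preimage `Z` of `Z(G ⧸ K)` has
index at most `b ^ 2` and all its irreducible characters have degree less than `b`.

A nonlinear irreducible character `φ` of `G ⧸ K` is faithful, vanishes off `Z` and has absolute
value `φ(1)` on `Z`, so that `φ(1)² = |G : Z|`; if `χ` had degree `b` and were irreducible on `Z`,
then `χ φ` would be irreducible of degree larger than `b`.
-/

namespace Cfsg.Agent.Lib.Helper82.IP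

open Cfsg

open scoped ComplexConjugate

universe u

/-- a sum over the group of a function vanishing off a subgroup -/
theorem sum_eq_sum_subgroup {G : Type u} [Group G] [Fintype G] (H : Subgroup G) [Fintype H]
    (f : G → ℝ) (hf : ∀ g : G, g ∉ H → f g = 0) : ∑ g : G, f g = ∑ h : H, f (h : G) := by
  classical
  have h1 : ∑ y : G, f y = ∑ y ∈ Finset.univ.filter (fun y : G => y ∈ H), f y := by
    symm
    apply Finset.sum_subset (Finset.filter_subset _ _)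
    intro y _ hy
    rw [Finset.mem_filter] at hy
    exact hf y (fun hh => hy ⟨Finset.mem_univ y, hh⟩)
  rw [h1, Finset.sum_subtype (Finset.univ.filter (fun y : G => y ∈ H)) (p := fun y => y ∈ H)
    (fun x => by simp)]

/-- If `G ⧸ K` is not abelian, `G` has an irreducible representation of degree `≠ 1` which is
trivial on `K`. -/
theorem exists_nonlinear_rep {G : Type u} [Group G] [Finite G] (K : Subgroup G) [K.Normal]
    (hnab : ∃ x y : G, x * y * x⁻¹ * y⁻¹ ∉ K) :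
    ∃ (n : ℕ) (ρ : Representation ℂ G (Fin n → ℂ)),
      ρ.IsIrreducible ∧ (∀ k ∈ K, ρ k = 1) ∧ n ≠ 1 := by
  by_contra hcon
  have hall : ∀ χ : Cfsg.IrrCharacter (G ⧸ K), Cfsg.charDegree (χ : G ⧸ K → ℂ) = 1 := by
    intro χ
    by_contra h1
    obtain ⟨n, σ, hirr, hσ⟩ := χ.2
    apply hcon
    refine ⟨n, σ.comp (QuotientGroup.mk' K),
      (Cfsg.Agent.Lib.Helper80.isIrreducible_comp_iff _ (QuotientGroup.mk'_surjective K) σ).mpr
        hirr, ?_, ?_⟩
    · intro k hk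
      show σ ((QuotientGroup.mk' K) k) = 1
      rw [QuotientGroup.mk'_apply, (QuotientGroup.eq_one_iff k).mpr hk, map_one]
    · intro hn
      apply h1
      rw [← hσ, Cfsg.Agent.Lib.Helper80.charDegree_char, hn]
  have hc := Cfsg.Agent.Lib.Helper80.isMulCommutative_of_forall_charDegree_eq_one hall
  obtain ⟨x, y, hxy⟩ := hnab
  apply hxy
  rw [← QuotientGroup.eq_one_iff]
  have e : ((x * y * x⁻¹ * y⁻¹ : G) : G ⧸ K) =
      (x : G ⧸ K) * (y : G ⧸ K) * (x : G ⧸ K)⁻¹ * (y : G ⧸ K)⁻¹ := rfl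
  rw [e, hc.1.1 (x : G ⧸ K) (y : G ⧸ K)]
  group

/-- **The case `Z(G ⧸ K) ≠ 1`**, for the preimage of the centre of `G ⧸ K`. -/
theorem case_center_comap {G : Type u} [Group G] [Finite G] (b : ℕ)
    (hb : ∀ χ : Cfsg.IrrCharacter G, Cfsg.charDegree (χ : G → ℂ) ≤ b) (K : Subgroup G)
    [K.Normal] (hnab : ∃ x y : G, x * y * x⁻¹ * y⁻¹ ∉ K)
    (hmax : ∀ L : Subgroup G, L.Normal → K ≤ L → L ≠ K → ∀ x y : G, x * y * x⁻¹ * y⁻¹ ∈ L)
    (z : G) (hzK : z ∉ K) (hz : ∀ g : G, g * z * g⁻¹ * z⁻¹ ∈ K) :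
    ((Subgroup.center (G ⧸ K)).comap (QuotientGroup.mk' K)).index ≤ b ^ 2 ∧
      ∀ ψ : Cfsg.IrrCharacter ↥((Subgroup.center (G ⧸ K)).comap (QuotientGroup.mk' K)),
        Cfsg.charDegree (ψ : ↥((Subgroup.center (G ⧸ K)).comap (QuotientGroup.mk' K)) → ℂ) <
          b := by
  classical
  have : Fintype G := Fintype.ofFinite G
  have : Finite (Cfsg.IrrCharacter G) := Cfsg.Agent.Lib.Helper81.irr_finite G
  have : Fintype (Cfsg.IrrCharacter G) := Fintype.ofFinite _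
  obtain ⟨n, ρ, hirr, hK, hn1⟩ := exists_nonlinear_rep K hnab
  have : ρ.IsIrreducible := hirr
  obtain ⟨φ, hφ⟩ : ∃ φ : G → ℂ, φ = ρ.character := ⟨_, rfl⟩
  have hφirr : Cfsg.IsIrrCharacter G φ := ⟨n, ρ, hirr, hφ.symm⟩
  have hφchar := Cfsg.Agent.Lib.Helper80.isCharacter_of_isIrrCharacter hφirr
  have hn0 : 0 < n := by
    have h := Cfsg.Agent.Lib.Helper80.finrank_pos_of_isIrreducible ρ
    simpa using h
  have hnb : n ≤ b := by
    have h := hb ⟨φ, hφirr⟩
    change Cfsg.charDegree φ ≤ b at h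
    rw [hφ, Cfsg.Agent.Lib.Helper80.charDegree_char] at h
    exact h
  have hsumφ := Cfsg.Agent.Lib.Helper80.sum_norm_sq_eq_card hφirr
  -- the kernel of `ρ` is `K`
  have hker : ∀ g : G, ρ g = 1 → g ∈ K := by
    by_contra hcon
    simp only [not_forall] at hcon
    obtain ⟨g₀, hg₀, hg₀K⟩ := hcon
    have hL : ∀ x y : G, x * y * x⁻¹ * y⁻¹ ∈ MonoidHom.ker ρ := by
      apply hmax (MonoidHom.ker ρ) (MonoidHom.normal_ker ρ)
      · intro k hk
        exact MonoidHom.mem_ker.mpr (hK k hk)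
      · intro h
        apply hg₀K
        rw [← h]
        exact MonoidHom.mem_ker.mpr hg₀
    have hcomm : ∀ x y : G, ρ x * ρ y = ρ y * ρ x := by
      intro x y
      have h1 := MonoidHom.mem_ker.mp (hL x y)
      have h2 : x * y = (x * y * x⁻¹ * y⁻¹) * (y * x) := by group
      rw [← map_mul, ← map_mul, h2, map_mul, h1, one_mul]
    have hnorm : ∀ x : G, ‖φ x‖ = (n : ℝ) := by
      intro x
      obtain ⟨c, hc⟩ := Cfsg.Agent.Lib.Helper80.schur_scalar ρ (ρ x) (fun g => hcomm x g)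
      rw [hφ]
      have h := (Cfsg.Agent.Lib.Helper80.norm_char_eq_finrank_iff ρ x).mpr ⟨c, hc⟩
      simpa using h
    have hsum := hsumφ
    rw [Finset.sum_congr rfl (fun x _ => by rw [hnorm x]), Finset.sum_const, Finset.card_univ,
      nsmul_eq_mul, ← Nat.card_eq_fintype_card] at hsum
    have hpos : (0 : ℝ) < (Nat.card G : ℝ) := by exact_mod_cast Nat.card_pos
    have h3 : ((n : ℝ)) ^ 2 = 1 := mul_left_cancel₀ hpos.ne' (hsum.trans (mul_one _).symm)
    have h4 : n ^ 2 = 1 := by exact_mod_cast h3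
    apply hn1
    rcases Nat.pow_eq_one.mp h4 with h | h
    · exact h
    · omega
  -- the preimage of the centre of `G ⧸ K`
  obtain ⟨Z, hZdef⟩ : ∃ Z : Subgroup G,
      Z = (Subgroup.center (G ⧸ K)).comap (QuotientGroup.mk' K) := ⟨_, rfl⟩
  have hZmem : ∀ g : G, g ∈ Z ↔ ∀ x : G, (x * g)⁻¹ * (g * x) ∈ K := by
    intro g
    rw [hZdef, Subgroup.mem_comap, Subgroup.mem_center_iff]
    constructor
    · intro h x
      have h1 := h (x : G ⧸ K)
      rw [← QuotientGroup.eq]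
      exact h1
    · intro h q
      obtain ⟨x, rfl⟩ := QuotientGroup.mk_surjective q
      have h1 := h x
      rw [← QuotientGroup.eq] at h1
      exact h1
  have hZn : Z.Normal := by
    rw [hZdef]
    exact Subgroup.Normal.comap inferInstance _
  have hKn : K.Normal := inferInstance
  have hKZ : K ≤ Z := by
    intro k hk
    rw [hZmem]
    intro x
    have h1 : x⁻¹ * k * x⁻¹⁻¹ ∈ K := hKn.conj_mem k hk x⁻¹
    have h2 : (x * k)⁻¹ * (k * x) = k⁻¹ * (x⁻¹ * k * x⁻¹⁻¹) := by group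
    rw [h2]
    exact K.mul_mem (K.inv_mem hk) h1
  have hzZ : z ∈ Z := by
    rw [hZmem]
    intro x
    have h1 := hz x⁻¹
    have h2 := hKn.conj_mem _ h1 z⁻¹
    have h3 : (x * z)⁻¹ * (z * x) = z⁻¹ * (x⁻¹ * z * x⁻¹⁻¹ * z⁻¹) * z⁻¹⁻¹ := by group
    rw [h3]
    exact h2
  have hZK : Z ≠ K := fun h => hzK (h ▸ hzZ)
  have hcomZ : ∀ x y : G, x * y * x⁻¹ * y⁻¹ ∈ Z := hmax Z hZn hKZ hZK
  -- the elements of `Z` act as scalars
  have hscal : ∀ c ∈ Z, ∃ ω : ℂ, ρ c = ω • (1 : Module.End ℂ (Fin n → ℂ)) := by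
    intro c hc
    apply Cfsg.Agent.Lib.Helper80.schur_scalar ρ (ρ c)
    intro g
    have h1 := hK _ ((hZmem c).mp hc g)
    have h2 : c * g = (g * c) * ((g * c)⁻¹ * (c * g)) := by group
    rw [← map_mul, ← map_mul, h2, map_mul, h1, mul_one]
  have hnormZ : ∀ c ∈ Z, ‖φ c‖ = (n : ℝ) := by
    intro c hc
    rw [hφ]
    have h := (Cfsg.Agent.Lib.Helper80.norm_char_eq_finrank_iff ρ c).mpr (hscal c hc)
    simpa using h
  -- `φ` vanishes off `Z`
  have hvan : ∀ g : G, g ∉ Z → φ g = 0 := by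
    intro g hg
    rw [hZmem] at hg
    simp only [not_forall] at hg
    obtain ⟨x, hx⟩ := hg
    obtain ⟨c, hcdef⟩ : ∃ c, c = (x * g)⁻¹ * (g * x) := ⟨_, rfl⟩
    rw [← hcdef] at hx
    have hcZ : c ∈ Z := by
      have h := hcomZ g⁻¹ x⁻¹
      have e : c = g⁻¹ * x⁻¹ * g⁻¹⁻¹ * x⁻¹⁻¹ := by rw [hcdef]; group
      rw [e]
      exact h
    obtain ⟨ω, hω⟩ := hscal c hcZ
    have hω1 : ω ≠ 1 := by
      rintro rfl
      apply hx
      apply hker
      rw [hω, one_smul]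
    have h1 : φ (g * c) = φ g := by
      have e : g * c = x⁻¹ * g * x⁻¹⁻¹ := by rw [hcdef]; group
      rw [e, hφ]
      exact ρ.char_conj g x⁻¹
    have h2 : φ (g * c) = ω * φ g := by
      rw [hφ]
      unfold Representation.character
      rw [map_mul, hω, mul_smul_comm, mul_one, map_smul, smul_eq_mul]
    have h3 : (1 - ω) * φ g = 0 := by linear_combination h2 - h1
    rcases mul_eq_zero.mp h3 with h | h
    · exact absurd (sub_eq_zero.mp h).symm hω1
    · exact h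
  have : Fintype Z := Fintype.ofFinite Z
  have hcardZ : (Nat.card Z : ℝ) * (n : ℝ) ^ 2 = (Nat.card G : ℝ) := by
    have e1 : ∑ g : G, ‖φ g‖ ^ 2 = ∑ c : Z, ‖φ (c : G)‖ ^ 2 :=
      sum_eq_sum_subgroup Z (fun g => ‖φ g‖ ^ 2) (fun g hg => by simp [hvan g hg])
    have e2 : ∑ c : Z, ‖φ (c : G)‖ ^ 2 = ∑ _c : Z, (n : ℝ) ^ 2 :=
      Finset.sum_congr rfl (fun c _ => by rw [hnormZ c c.2])
    rw [Finset.sum_const, Finset.card_univ, nsmul_eq_mul, ← Nat.card_eq_fintype_card] at e2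
    rw [← hsumφ, e1, e2]
  have hidx : Z.index = n ^ 2 := by
    have h1 := Z.card_mul_index
    have h2 : (Nat.card Z : ℝ) * (n : ℝ) ^ 2 = (Nat.card Z : ℝ) * (Z.index : ℝ) := by
      rw [hcardZ, ← h1]
      push_cast
      ring
    have hZpos : (0 : ℝ) < (Nat.card Z : ℝ) := by exact_mod_cast Nat.card_pos
    have h3 := mul_left_cancel₀ hZpos.ne' h2
    exact_mod_cast h3.symm
  rw [← hZdef]
  refine ⟨by rw [hidx]; exact Nat.pow_le_pow_left hnb 2, ?_⟩
  intro ψ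
  by_contra hlt
  rw [not_lt] at hlt
  have : Finite (Cfsg.IrrCharacter Z) := Cfsg.Agent.Lib.Helper81.irr_finite Z
  have : Fintype (Cfsg.IrrCharacter Z) := Fintype.ofFinite _
  obtain ⟨χ, hχirr, hχne⟩ := Cfsg.Agent.Lib.Helper80.exists_irr_over Z ψ.2
  have hχchar := Cfsg.Agent.Lib.Helper80.isCharacter_of_isIrrCharacter hχirr
  have hχb : Cfsg.charDegree χ ≤ b := hb ⟨χ, hχirr⟩
  have hres : Cfsg.IsCharacter Z (fun x : Z => χ x) :=
    Cfsg.Agent.Lib.Helper80.isCharacter_restrict Z hχchar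
  have hresdeg : Cfsg.charDegree (fun x : Z => χ x) = Cfsg.charDegree χ := rfl
  have heq : (fun x : Z => χ x) = (ψ : Z → ℂ) :=
    Cfsg.Agent.Lib.Helper80.eq_of_constituent_of_degree_le hres ψ.2 hχne
      (by rw [hresdeg]; exact le_trans hχb hlt)
  have hχdeg : Cfsg.charDegree χ = Cfsg.charDegree (ψ : Z → ℂ) := by rw [← hresdeg, heq]
  have hsumψ := Cfsg.Agent.Lib.Helper80.sum_norm_sq_eq_card ψ.2
  have hsumχZ : ∑ c : Z, ‖χ (c : G)‖ ^ 2 = (Nat.card Z : ℝ) := by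
    rw [← hsumψ]
    refine Finset.sum_congr rfl (fun c _ => ?_)
    rw [← heq]
  have hprod : Cfsg.IsCharacter G (χ * φ) :=
    Cfsg.Agent.Lib.Helper80.isCharacter_mul hχchar hφchar
  have hnormsum : ∑ g : G, ‖χ g‖ ^ 2 * ‖φ g‖ ^ 2 = (Nat.card G : ℝ) := by
    have e1 : ∑ g : G, ‖χ g‖ ^ 2 * ‖φ g‖ ^ 2 = ∑ c : Z, ‖χ (c : G)‖ ^ 2 * ‖φ (c : G)‖ ^ 2 :=
      sum_eq_sum_subgroup Z (fun g => ‖χ g‖ ^ 2 * ‖φ g‖ ^ 2) (fun g hg => by simp [hvan g hg])
    have e2 : ∑ c : Z, ‖χ (c : G)‖ ^ 2 * ‖φ (c : G)‖ ^ 2 =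
        ∑ c : Z, ‖χ (c : G)‖ ^ 2 * (n : ℝ) ^ 2 :=
      Finset.sum_congr rfl (fun c _ => by rw [hnormZ c c.2])
    rw [e1, e2, ← Finset.sum_mul, hsumχZ, hcardZ]
  have hinner : Cfsg.classInner (χ * φ) (χ * φ) = 1 := by
    unfold Cfsg.classInner
    have h1 : ∑ g : G, (χ * φ) g * conj ((χ * φ) g) =
        ((∑ g : G, ‖χ g‖ ^ 2 * ‖φ g‖ ^ 2 : ℝ) : ℂ) := by
      push_cast
      refine Finset.sum_congr rfl (fun g _ => ?_)
      rw [Pi.mul_apply, Complex.mul_conj, Complex.normSq_eq_norm_sq, norm_mul]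
      push_cast
      ring
    rw [h1, hnormsum]
    have hne : (Nat.card G : ℂ) ≠ 0 := by exact_mod_cast (Nat.card_pos (α := G)).ne'
    push_cast
    exact inv_mul_cancel₀ hne
  have hirrprod := Cfsg.Agent.Lib.Helper80.isIrrCharacter_of_classInner_eq_one hprod hinner
  have hdegprod : Cfsg.charDegree (χ * φ) = Cfsg.charDegree χ * n := by
    have h1 := Cfsg.Agent.Lib.Helper80.char_one_eq_charDegree hprod
    have hφ1 : φ 1 = (n : ℂ) := by
      rw [hφ]
      exact Cfsg.Agent.Lib.Helper80.char_one_fin ρ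
    rw [Pi.mul_apply, Cfsg.Agent.Lib.Helper80.char_one_eq_charDegree hχchar, hφ1] at h1
    exact_mod_cast h1.symm
  have hle := hb ⟨χ * φ, hirrprod⟩
  change Cfsg.charDegree (χ * φ) ≤ b at hle
  rw [hdegprod] at hle
  have hχpos := Cfsg.Agent.Lib.Helper80.charDegree_pos hχirr
  have hn2 : 2 ≤ n := by omega
  have h5 := Nat.mul_le_mul_left (Cfsg.charDegree χ) hn2
  omega

/-- **The case `Z(G ⧸ K) ≠ 1`.** -/
theorem case_center {G : Type u} [Group G] [Finite G] (b : ℕ)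
    (hb : ∀ χ : Cfsg.IrrCharacter G, Cfsg.charDegree (χ : G → ℂ) ≤ b) (K : Subgroup G)
    [K.Normal] (hnab : ∃ x y : G, x * y * x⁻¹ * y⁻¹ ∉ K)
    (hmax : ∀ L : Subgroup G, L.Normal → K ≤ L → L ≠ K → ∀ x y : G, x * y * x⁻¹ * y⁻¹ ∈ L)
    (z : G) (hzK : z ∉ K) (hz : ∀ g : G, g * z * g⁻¹ * z⁻¹ ∈ K) :
    ∃ H : Subgroup G, H.index ≤ b ^ 2 ∧
      ∀ ψ : Cfsg.IrrCharacter H, Cfsg.charDegree (ψ : H → ℂ) < b := by
  obtain ⟨h1, h2⟩ := case_center_comap b hb K hnab hmax z hzK hz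
  exact ⟨_, h1, h2⟩

end Cfsg.Agent.Lib.Helper82.IP
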