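import Mathlib
import Cfsg.Agent.Lib.Helper75.CharInd
import Cfsg.Agent.Lib.Helper80.Orthogonality
import Cfsg.Agent.Lib.Helper80.Eigen
import Cfsg.Agent.Lib.Helper81.CharCore
import Cfsg.Agent.Lib.Helper91.SSBasic
import Cfsg.Agent.Lib.Helper3.Burnside
import Cfsg.Agent.Lib.Helper79.Linear
import Cfsg.Agent.Lib.Helper90.BrauerDeg

set_option autoImplicit false

/-!
# Character degrees of subgroups and quotients; groups with all degrees at most four

* `exists_irr_degree_ge`: every irreducible character of a subgroup `H` of a finite group `G`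
  has degree at most the degree of some irreducible character of `G`;
* `exists_irr_degree_eq_of_quotient`: the degrees of the irreducible characters of a quotient
  are degrees of irreducible characters of the group;
* `isSolvable_of_charDegree_le_four`: a finite group all of whose irreducible characters have
  degree at most `4` is solvable.
-/

namespace Cfsg.Agent.Lib.Helper82.IP

open Cfsg

universe u

/-- Every irreducible character of a subgroup has degree at most the degree of some irreducible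
character of the group. -/
theorem exists_irr_degree_ge {G : Type u} [Group G] [Finite G] (H : Subgroup G)
    (ψ : Cfsg.IrrCharacter H) :
    ∃ χ : Cfsg.IrrCharacter G,
      Cfsg.charDegree (ψ : H → ℂ) ≤ Cfsg.charDegree (χ : G → ℂ) := by
  classical
  have : Fintype G := Fintype.ofFinite G
  have : Fintype H := Fintype.ofFinite H
  have : Finite (Cfsg.IrrCharacter G) := Cfsg.Agent.Lib.Helper81.irr_finite G
  have : Fintype (Cfsg.IrrCharacter G) := Fintype.ofFinite _
  have : Finite (Cfsg.IrrCharacter H) := Cfsg.Agent.Lib.Helper81.irr_finite H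
  have : Fintype (Cfsg.IrrCharacter H) := Fintype.ofFinite _
  have hψc : Cfsg.IsCharacter H (ψ : H → ℂ) := Cfsg.Agent.Lib.Helper3.isCharacter_of_irr ψ.2
  have hind : Cfsg.IsCharacter G (Cfsg.indFun H (ψ : H → ℂ)) :=
    Cfsg.Agent.Lib.Helper75.isCharacter_indFun H hψc
  obtain ⟨m, hm, hsum⟩ := Cfsg.Agent.Lib.Helper75.char_eq_sum_irr hind
  have h1 : Cfsg.indFun H (ψ : H → ℂ) 1 = (H.index : ℂ) * (ψ : H → ℂ) 1 :=
    Cfsg.Agent.Lib.Helper75.indFun_one H _
  have hne : Cfsg.indFun H (ψ : H → ℂ) 1 ≠ 0 := by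
    rw [h1]
    apply mul_ne_zero
    · have : H.index ≠ 0 := Subgroup.index_ne_zero_of_finite
      exact_mod_cast this
    · exact Cfsg.Agent.Lib.Helper80.char_one_ne_zero ψ.2
  obtain ⟨χ, hχ⟩ : ∃ χ : Cfsg.IrrCharacter G, m χ ≠ 0 := by
    by_contra hall
    simp only [not_exists, not_not] at hall
    apply hne
    rw [hsum]
    simp [hall]
  refine ⟨χ, ?_⟩
  have hχc : Cfsg.IsCharacter G (χ : G → ℂ) := Cfsg.Agent.Lib.Helper3.isCharacter_of_irr χ.2
  have hfr := Cfsg.Agent.Lib.Helper75.frobenius_reciprocity H (ψ : H → ℂ)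
    (Cfsg.Agent.Lib.Helper3.isClassFunction_of_isCharacter hχc)
  rw [hm χ] at hfr
  have hres : Cfsg.IsCharacter H (fun h : H => (χ : G → ℂ) h) :=
    Cfsg.Agent.Lib.Helper75.isCharacter_res H hχc
  obtain ⟨n, hn, hsumH⟩ := Cfsg.Agent.Lib.Helper75.char_eq_sum_irr hres
  have hnψ : n ψ = m χ := by
    have h2 := hn ψ
    rw [Cfsg.Agent.Lib.Helper75.classInner_conj_symm, ← hfr] at h2
    have h3 : ((m χ : ℕ) : ℂ) = ((n ψ : ℕ) : ℂ) := by simpa using h2
    exact_mod_cast h3.symm
  have hdeg : (χ : G → ℂ) 1 = ∑ θ : Cfsg.IrrCharacter H, (n θ : ℂ) * (θ : H → ℂ) 1 := by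
    have h2 := congrFun hsumH 1
    simpa [Finset.sum_apply] using h2
  have hN : Cfsg.charDegree (χ : G → ℂ) =
      ∑ θ : Cfsg.IrrCharacter H, n θ * Cfsg.charDegree (θ : H → ℂ) := by
    have h2 := Cfsg.Agent.Lib.Helper80.char_one_eq_charDegree hχc
    rw [hdeg] at h2
    have h3 : ((∑ θ : Cfsg.IrrCharacter H, n θ * Cfsg.charDegree (θ : H → ℂ) : ℕ) : ℂ) =
        ((Cfsg.charDegree (χ : G → ℂ) : ℕ) : ℂ) := by
      rw [← h2]
      push_cast
      refine Finset.sum_congr rfl (fun θ _ => ?_)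
      rw [Cfsg.Agent.Lib.Helper80.char_one_eq_charDegree
        (Cfsg.Agent.Lib.Helper3.isCharacter_of_irr θ.2)]
    exact_mod_cast h3.symm
  rw [hN]
  calc Cfsg.charDegree (ψ : H → ℂ) ≤ n ψ * Cfsg.charDegree (ψ : H → ℂ) :=
        Nat.le_mul_of_pos_left _ (by rw [hnψ]; omega)
    _ ≤ ∑ θ : Cfsg.IrrCharacter H, n θ * Cfsg.charDegree (θ : H → ℂ) :=
        Finset.single_le_sum (f := fun θ : Cfsg.IrrCharacter H =>
          n θ * Cfsg.charDegree (θ : H → ℂ)) (fun θ _ => Nat.zero_le _) (Finset.mem_univ ψ)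

/-- The degrees of the irreducible characters of a quotient are degrees of irreducible
characters of the group. -/
theorem exists_irr_degree_eq_of_quotient {G : Type u} [Group G] [Finite G] (N : Subgroup G)
    [N.Normal] (ψ : Cfsg.IrrCharacter (G ⧸ N)) :
    ∃ χ : Cfsg.IrrCharacter G,
      Cfsg.charDegree (χ : G → ℂ) = Cfsg.charDegree (ψ : G ⧸ N → ℂ) := by
  refine ⟨⟨fun g => (ψ : G ⧸ N → ℂ) (g : G ⧸ N),
    Cfsg.Agent.Lib.Helper80.isIrrCharacter_inflate N ψ.2⟩, ?_⟩
  unfold Cfsg.charDegree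
  simp

/-- the value of an irreducible character of a simple group at an involution -/
theorem involution_val {X : Type u} [Group X] [Finite X] [IsSimpleGroup X]
    (hGn : ¬ (Nat.card X).Prime) (ψ : Cfsg.IrrCharacter X) (t : X) (htt : t * t = 1) :
    ∃ k : ℕ, 2 * k ≤ Cfsg.charDegree (ψ : X → ℂ) ∧
      (ψ : X → ℂ) t = (((Cfsg.charDegree (ψ : X → ℂ) : ℤ) - 4 * (k : ℤ) : ℤ) : ℂ) := by
  have hirr := ψ.2
  have hchar := Cfsg.Agent.Lib.Helper80.isCharacter_of_isIrrCharacter hirr
  have hxd := Cfsg.Agent.Lib.Helper80.char_one_eq_charDegree hchar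
  obtain ⟨k4, hk4⟩ := Cfsg.Agent.Lib.Helper91.SS.mod_four hGn hchar t htt
  rw [hxd] at hk4
  obtain ⟨f, hf⟩ : ∃ f, f = Cfsg.charDegree (ψ : X → ℂ) := ⟨_, rfl⟩
  rw [← hf] at hk4 ⊢
  have hχc : (ψ : X → ℂ) t = (f : ℂ) - 4 * (k4 : ℂ) := by linear_combination hk4
  have hb := Cfsg.Agent.Lib.Helper80.norm_char_le_charDegree hchar t
  rw [hχc, ← hf] at hb
  have h1 : (f : ℂ) - 4 * (k4 : ℂ) = (((f : ℤ) - 4 * (k4 : ℤ) : ℤ) : ℂ) := by
    push_cast
    ring
  rw [h1, Complex.norm_intCast] at hb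
  have h2 : |((f : ℤ) - 4 * (k4 : ℤ) : ℤ)| ≤ (f : ℤ) := by exact_mod_cast hb
  have h3 := abs_le.mp h2
  refine ⟨k4, by omega, ?_⟩
  rw [hχc, h1]

/-- In a non-abelian simple group, `|χ(t)| ≠ χ(1)` for a nonlinear irreducible character `χ`
and `t ≠ 1`. -/
theorem norm_char_ne_degree {X : Type u} [Group X] [Finite X] [IsSimpleGroup X]
    (hnab : ¬ ∀ x y : X, x * y = y * x) (χ : Cfsg.IrrCharacter X)
    (hχ1 : (χ : X → ℂ) 1 ≠ 1) (t : X) (ht : t ≠ 1) :
    ‖(χ : X → ℂ) t‖ ≠ (Cfsg.charDegree (χ : X → ℂ) : ℝ) := by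
  obtain ⟨n, ρ, hirr, hρ⟩ := χ.2
  intro h
  have : ρ.IsIrreducible := hirr
  rw [← hρ, Cfsg.Agent.Lib.Helper80.charDegree_char] at h
  obtain ⟨c, hc⟩ := (Cfsg.Agent.Lib.Helper80.norm_char_eq_finrank_iff ρ t).mp (by rw [h]; simp)
  refine Cfsg.Agent.Lib.Helper3.not_scalar_of_simple hnab ρ ?_ t ht c hc
  intro h1
  apply hχ1
  rw [← hρ, h1]

/-- the arithmetic of the values at an involution -/
theorem arith_val (f k : ℕ) (h1 : f ≠ 1) (h4 : 0 < f) (h2 : f ≤ 4) (hk : 2 * k ≤ f)
    (hk0 : k ≠ 0) (hk2 : 2 * k ≠ f) : (3 : ℤ) ∣ (f : ℤ) * ((f : ℤ) - 4 * (k : ℤ)) := by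
  have hkle : k ≤ 2 := by omega
  interval_cases f <;> interval_cases k <;> omega

/-- A non-abelian finite simple group has an irreducible character of degree at least `5`. -/
theorem not_simple_of_charDegree_le_four {X : Type u} [Group X] [Finite X] [IsSimpleGroup X]
    (hnab : ¬ ∀ x y : X, x * y = y * x)
    (h : ∀ χ : Cfsg.IrrCharacter X, Cfsg.charDegree (χ : X → ℂ) ≤ 4) : False := by
  classical
  have : Fintype X := Fintype.ofFinite X
  have : Finite (Cfsg.IrrCharacter X) := Cfsg.Agent.Lib.Helper81.irr_finite X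
  have : Fintype (Cfsg.IrrCharacter X) := Fintype.ofFinite _
  have hGn : ¬ (Nat.card X).Prime := by
    intro hp
    have : Fact (Nat.card X).Prime := ⟨hp⟩
    have hcyc : IsCyclic X := isCyclic_of_prime_card rfl
    exact hnab (fun x y => (IsCyclic.commGroup (α := X)).mul_comm x y)
  have hperf := Cfsg.Agent.Lib.Helper90.BrauerDeg.commutator_eq_top_of_simple hGn
  -- the trivial character
  obtain ⟨χ₁, hχ₁⟩ : ∃ χ₁ : Cfsg.IrrCharacter X, (χ₁ : X → ℂ) = fun _ => 1 :=
    ⟨⟨fun _ => 1, Cfsg.Agent.Lib.Helper3.isIrrCharacter_one⟩, rfl⟩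
  -- linear characters are trivial
  have hlin : ∀ χ : Cfsg.IrrCharacter X, (χ : X → ℂ) 1 = 1 → χ = χ₁ := by
    intro χ h1
    apply Subtype.ext
    rw [hχ₁]
    funext c
    exact Cfsg.Agent.Lib.Helper79.linear_irr_commutator χ.2 h1 (by rw [hperf]; trivial)
  have hd1 : ∀ χ : Cfsg.IrrCharacter X,
      (χ : X → ℂ) 1 = (Cfsg.charDegree (χ : X → ℂ) : ℂ) := fun χ =>
    Cfsg.Agent.Lib.Helper80.char_one_eq_charDegree
      (Cfsg.Agent.Lib.Helper3.isCharacter_of_irr χ.2)
  have hdeg1 : ∀ χ : Cfsg.IrrCharacter X, χ ≠ χ₁ → Cfsg.charDegree (χ : X → ℂ) ≠ 1 := by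
    intro χ hne h1
    apply hne
    apply hlin
    rw [hd1 χ, h1]
    simp
  have hpos : ∀ χ : Cfsg.IrrCharacter X, 0 < Cfsg.charDegree (χ : X → ℂ) := fun χ =>
    Cfsg.Agent.Lib.Helper80.charDegree_pos χ.2
  have hdvd : ∀ χ : Cfsg.IrrCharacter X, Cfsg.charDegree (χ : X → ℂ) ∣ Nat.card X := fun χ =>
    Cfsg.Agent.Lib.Helper80.charDegree_dvd_card χ.2
  have hχ₁d : Cfsg.charDegree (χ₁ : X → ℂ) = 1 := by
    unfold Cfsg.charDegree
    rw [hχ₁]
    simp
  have hc1 : 1 < Nat.card X := Finite.one_lt_card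
  -- the order is even
  have heven : 2 ∣ Nat.card X := by
    by_contra hodd
    have h3 : ∀ χ : Cfsg.IrrCharacter X, χ ≠ χ₁ → Cfsg.charDegree (χ : X → ℂ) = 3 := by
      intro χ hne
      have h1 := hdeg1 χ hne
      have h2 := h χ
      have h4 := hpos χ
      have h5 := hdvd χ
      have h6 : ¬ 2 ∣ Cfsg.charDegree (χ : X → ℂ) := fun hh => hodd (dvd_trans hh h5)
      omega
    have hsum := Cfsg.Agent.Lib.Helper80.sum_charDegree_sq (G := X)
    rw [← Finset.add_sum_erase _ _ (Finset.mem_univ χ₁), hχ₁d] at hsum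
    have hrest : ∑ χ ∈ Finset.univ.erase χ₁, Cfsg.charDegree (χ : X → ℂ) ^ 2 =
        9 * (Finset.univ.erase χ₁).card := by
      rw [Finset.sum_congr rfl (fun χ hχ => by rw [h3 χ (Finset.ne_of_mem_erase hχ)]),
        Finset.sum_const, smul_eq_mul]
      ring
    rw [hrest] at hsum
    rcases Finset.eq_empty_or_nonempty (Finset.univ.erase χ₁) with he | ⟨χ, hχ⟩
    · rw [he, Finset.card_empty] at hsum
      omega
    · have h3' := hdvd χ
      rw [h3 χ (Finset.ne_of_mem_erase hχ)] at h3'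
      omega
  obtain ⟨t, ht⟩ := exists_prime_orderOf_dvd_card' (G := X) 2 heven
  have ht1 : t ≠ 1 := by
    intro h1
    rw [h1, orderOf_one] at ht
    omega
  have htt : t * t = 1 := by
    rw [← pow_two, ← ht]
    exact pow_orderOf_eq_one t
  -- the values at `t`
  have key : ∀ χ : Cfsg.IrrCharacter X, ∃ z : ℤ,
      (χ : X → ℂ) 1 * (χ : X → ℂ) t = (z : ℂ) ∧ (χ = χ₁ → z = 1) ∧
        (χ ≠ χ₁ → (3 : ℤ) ∣ z) := by
    intro χ
    by_cases hχ : χ = χ₁
    · refine ⟨1, ?_, fun _ => rfl, fun hne => absurd hχ hne⟩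
      rw [hχ, hχ₁]
      simp
    · obtain ⟨k, hk, hval⟩ := involution_val hGn χ t htt
      have h1 := hdeg1 χ hχ
      have h2 := h χ
      have h4 := hpos χ
      have hχ1 : (χ : X → ℂ) 1 ≠ 1 := by
        rw [hd1 χ]
        exact_mod_cast h1
      have hk0 : k ≠ 0 := by
        rintro rfl
        apply ht1
        apply Cfsg.Agent.Lib.Helper91.SS.eq_one_of_char_eq χ hχ1 t
        rw [hval, hd1 χ]
        push_cast
        ring
      have hns := norm_char_ne_degree hnab χ hχ1 t ht1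
      rw [hval, Complex.norm_intCast] at hns
      have hns' : |((Cfsg.charDegree (χ : X → ℂ) : ℤ) - 4 * (k : ℤ))| ≠
          (Cfsg.charDegree (χ : X → ℂ) : ℤ) := by exact_mod_cast hns
      have hk2 : 2 * k ≠ Cfsg.charDegree (χ : X → ℂ) := by
        intro h2k
        apply hns'
        have e : ((Cfsg.charDegree (χ : X → ℂ) : ℤ) - 4 * (k : ℤ)) =
            -(Cfsg.charDegree (χ : X → ℂ) : ℤ) := by omega
        rw [e, abs_neg]
        exact abs_of_nonneg (Int.natCast_nonneg _)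
      refine ⟨(Cfsg.charDegree (χ : X → ℂ) : ℤ) *
        ((Cfsg.charDegree (χ : X → ℂ) : ℤ) - 4 * (k : ℤ)), ?_, fun h' => absurd h' hχ,
        fun _ => arith_val _ k h1 h4 h2 hk hk0 hk2⟩
      rw [hval, hd1 χ]
      push_cast
      ring
  choose z hz1 hz2 hz3 using key
  have hsum : ∑ χ : Cfsg.IrrCharacter X, z χ = 0 := by
    have h0 := Cfsg.Agent.Lib.Helper81.irr_regular (G := X) t
    rw [if_neg ht1] at h0
    have h5 : ((∑ χ : Cfsg.IrrCharacter X, z χ : ℤ) : ℂ) = 0 := by
      push_cast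
      rw [← h0]
      exact Finset.sum_congr rfl (fun χ _ => (hz1 χ).symm)
    exact_mod_cast h5
  rw [← Finset.add_sum_erase _ _ (Finset.mem_univ χ₁), hz2 χ₁ rfl] at hsum
  have h3 : (3 : ℤ) ∣ ∑ χ ∈ Finset.univ.erase χ₁, z χ :=
    Finset.dvd_sum (fun χ hχ => hz3 χ (Finset.ne_of_mem_erase hχ))
  omega

/-- induction on the order -/
theorem isSolvable_aux : ∀ (n : ℕ) (X : Type u) [Group X] [Finite X], Nat.card X = n →
    (∀ χ : Cfsg.IrrCharacter X, Cfsg.charDegree (χ : X → ℂ) ≤ 4) → Group.IsSolvable X := by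
  intro n
  induction n using Nat.strong_induction_on with
  | _ n ih =>
    intro X _ _ hcard h
    by_cases hsimp : ∀ N : Subgroup X, N.Normal → N = ⊥ ∨ N = ⊤
    · by_cases hcomm : ∀ x y : X, x * y = y * x
      · exact Group.isSolvable_of_comm hcomm
      · exfalso
        have hnt : Nontrivial X := by
          by_contra hn
          rw [not_nontrivial_iff_subsingleton] at hn
          exact hcomm (fun x y => Subsingleton.elim _ _)
        have : IsSimpleGroup X :=
          { toNontrivial := hnt, eq_bot_or_eq_top_of_normal := hsimp }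
        exact not_simple_of_charDegree_le_four hcomm h
    · simp only [not_forall, not_or] at hsimp
      obtain ⟨N, hN, hbot, htop⟩ := hsimp
      have : N.Normal := hN
      have hNcard : Nat.card N < n := by
        rw [← hcard]
        exact lt_of_le_of_ne (Subgroup.card_le_card_group N)
          (fun hh => htop ((Subgroup.card_eq_iff_eq_top N).mp hh))
      have hNsolv : Group.IsSolvable N := ih (Nat.card N) hNcard N rfl (fun ψ => by
        obtain ⟨χ, hχ⟩ := exists_irr_degree_ge N ψ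
        exact le_trans hχ (h χ))
      have hQcard : Nat.card (X ⧸ N) < n := by
        rw [← hcard]
        have h1 := Subgroup.card_eq_card_quotient_mul_card_subgroup N
        have h2 : 1 < Nat.card N := (Subgroup.one_lt_card_iff_ne_bot N).mpr hbot
        have h3 : 0 < Nat.card (X ⧸ N) := Nat.card_pos
        nlinarith
      have hQsolv : Group.IsSolvable (X ⧸ N) := ih _ hQcard (X ⧸ N) rfl (fun ψ => by
        obtain ⟨χ, hχ⟩ := exists_irr_degree_eq_of_quotient N ψ
        rw [← hχ]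
        exact h χ)
      exact Group.isSolvable_of_ker_le_range N.subtype (QuotientGroup.mk' N) (by simp)

/-- A finite group all of whose irreducible characters have degree at most `4` is solvable. -/
theorem isSolvable_of_charDegree_le_four {X : Type u} [Group X] [Finite X]
    (h : ∀ χ : Cfsg.IrrCharacter X, Cfsg.charDegree (χ : X → ℂ) ≤ 4) : Group.IsSolvable X :=
  isSolvable_aux (Nat.card X) X rfl h

end Cfsg.Agent.Lib.Helper82.IP
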