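import Mathlib
import Cfsg.Agent.Lib.Helper86.IP.Defs
import Cfsg.Agent.Lib.Helper82.IP.SmallDeg
import Cfsg.Agent.Lib.Helper82.IP.CaseCenter

set_option autoImplicit false

/-!
# S4463 packages: `LemSub`, `LemQuot`, `LemSolv`, `LemCI`, `LemA`
-/

namespace Cfsg.Agent.Lib.Helper82.IP

open Cfsg Cfsg.Agent.Lib.Helper86.IP

universe u

/-- [BASIC] monotonicity of the largest degree for subgroups -/
theorem lemSub : LemSub.{u} := by
  intro X _ _ H b b' hb hb'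
  obtain ⟨ψ, hψ⟩ := hb'.1
  obtain ⟨χ, hχ⟩ := exists_irr_degree_ge H ψ
  rw [← hψ]
  exact le_trans hχ (hb.2 ⟨χ, rfl⟩)

/-- [BASIC] monotonicity of the largest degree for quotients -/
theorem lemQuot : LemQuot.{u} := by
  intro X _ _ K _ b b' hb hb'
  obtain ⟨ψ, hψ⟩ := hb'.1
  obtain ⟨χ, hχ⟩ := exists_irr_degree_eq_of_quotient K ψ
  rw [← hψ, ← hχ]
  exact hb.2 ⟨χ, rfl⟩

/-- [BASIC] largest degree at most `4` implies solvable -/
theorem lemSolv : LemSolv.{u} := by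
  intro X _ _ b hb h4
  exact isSolvable_of_charDegree_le_four (fun χ => le_trans (hb.2 ⟨χ, rfl⟩) h4)

/-- a bounded set of character degrees has a largest element -/
theorem exists_isB_of_bound {Y : Type u} [Group Y] (b : ℕ)
    (h : ∀ ψ : Cfsg.IrrCharacter Y, Cfsg.charDegree (ψ : Y → ℂ) < b) :
    ∃ b' : ℕ, b' < b ∧ Cfsg.Agent.Lib.Helper86.IP.IsB Y b' := by
  have hne : {d : ℕ | ∃ χ : Cfsg.IrrCharacter Y, Cfsg.charDegree (χ : Y → ℂ) = d}.Nonempty :=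
    ⟨_, ⟨⟨fun _ => 1, Cfsg.Agent.Lib.Helper3.isIrrCharacter_one⟩, rfl⟩⟩
  have hbdd : BddAbove {d : ℕ | ∃ χ : Cfsg.IrrCharacter Y, Cfsg.charDegree (χ : Y → ℂ) = d} := by
    refine ⟨b, ?_⟩
    rintro d ⟨χ, rfl⟩
    exact (h χ).le
  have hmem := Nat.sSup_mem hne hbdd
  refine ⟨sSup {d : ℕ | ∃ χ : Cfsg.IrrCharacter Y, Cfsg.charDegree (χ : Y → ℂ) = d}, ?_, ?_⟩
  · obtain ⟨χ, hχ⟩ := hmem
    rw [← hχ]
    exact h χ
  · exact ⟨hmem, fun d hd => le_csSup hbdd hd⟩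

/-- [CI] the case where `X ⧸ K` has a nontrivial centre -/
theorem lemCI : LemCI.{u} := by
  intro X _ _ K _ b hb hnab hmin hZ
  have hKn : K.Normal := inferInstance
  -- translation of the hypotheses
  have hnab' : ∃ x y : X, x * y * x⁻¹ * y⁻¹ ∉ K := by
    by_contra hcon
    simp only [not_exists, not_not] at hcon
    apply hnab
    intro q₁ q₂
    obtain ⟨x, rfl⟩ := QuotientGroup.mk_surjective q₁
    obtain ⟨y, rfl⟩ := QuotientGroup.mk_surjective q₂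
    have h1 := hcon y⁻¹ x⁻¹
    have h2 : (x * y)⁻¹ * (y * x) = y⁻¹ * x⁻¹ * y⁻¹⁻¹ * x⁻¹⁻¹ := by group
    rw [← h2] at h1
    exact (QuotientGroup.eq (s := K)).mpr h1
  have hmax' : ∀ L : Subgroup X, L.Normal → K ≤ L → L ≠ K →
      ∀ x y : X, x * y * x⁻¹ * y⁻¹ ∈ L := by
    intro L hL hKL hne x y
    have hN : (L.map (QuotientGroup.mk' K)).Normal :=
      Subgroup.Normal.map hL _ (QuotientGroup.mk'_surjective K)
    have hNne : L.map (QuotientGroup.mk' K) ≠ ⊥ := by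
      intro h
      rw [Subgroup.map_eq_bot_iff, QuotientGroup.ker_mk'] at h
      exact hne (le_antisymm h hKL)
    have h1 := hmin _ hN hNne
    have h2 : ((x * y * x⁻¹ * y⁻¹ : X) : X ⧸ K) ∈ commutator (X ⧸ K) := by
      rw [commutator_def]
      have h3 := Subgroup.commutator_mem_commutator (Subgroup.mem_top (x : X ⧸ K))
        (Subgroup.mem_top (y : X ⧸ K))
      rw [commutatorElement_def] at h3
      exact h3
    obtain ⟨l, hl, hlq⟩ := Subgroup.mem_map.mp (h1 h2)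
    have h4 : l⁻¹ * (x * y * x⁻¹ * y⁻¹) ∈ K := (QuotientGroup.eq (s := K)).mp hlq
    have h5 : x * y * x⁻¹ * y⁻¹ = l * (l⁻¹ * (x * y * x⁻¹ * y⁻¹)) := by group
    rw [h5]
    exact L.mul_mem hl (hKL h4)
  obtain ⟨q, hq, hq1⟩ : ∃ q ∈ Subgroup.center (X ⧸ K), q ≠ 1 := by
    by_contra hcon
    simp only [not_exists, not_and, not_not] at hcon
    exact hZ ((Subgroup.eq_bot_iff_forall _).mpr hcon)
  obtain ⟨z, rfl⟩ := QuotientGroup.mk_surjective q
  have hzK : z ∉ K := fun h => hq1 ((QuotientGroup.eq_one_iff z).mpr h)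
  have hz : ∀ g : X, g * z * g⁻¹ * z⁻¹ ∈ K := by
    intro g
    rw [← QuotientGroup.eq_one_iff]
    have h1 := Subgroup.mem_center_iff.mp hq (g : X ⧸ K)
    have e : ((g * z * g⁻¹ * z⁻¹ : X) : X ⧸ K) =
        (g : X ⧸ K) * (z : X ⧸ K) * (g : X ⧸ K)⁻¹ * (z : X ⧸ K)⁻¹ := rfl
    rw [e, h1]
    group
  obtain ⟨h1, h2⟩ := case_center_comap b (fun χ => hb.2 ⟨χ, rfl⟩) K hnab' hmax' z hzK hz
  exact ⟨h1, exists_isB_of_bound b h2⟩

/-- Lemma A from its vanishing form and Clifford's theorem -/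
theorem lemA_of (h1 : LemVanA.{u}) (h2 : LemCliff.{u}) : LemA.{u} := by
  intro X _ _ H b hb hbH
  obtain ⟨ψ, hψ⟩ := hbH.1
  have hv := h1 X H b hb ψ hψ
  have hD : (H.normalCore.subgroupOf H).Normal := Subgroup.Normal.subgroupOf inferInstance H
  have hc := h2 ↥H (H.normalCore.subgroupOf H) ψ (fun y hy => hv y (fun hh => hy
    (Subgroup.mem_subgroupOf.mpr hh)))
  rw [hψ] at hc
  exact hc

end Cfsg.Agent.Lib.Helper82.IP
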